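import Cfsg.Agent.H80.PB.TitsLineChk0
import Cfsg.Agent.H80.PB.TitsLineChk1
import Cfsg.Agent.H80.PB.TitsLineOrb
import Cfsg.Agent.SporadicB.RuTits
import Cfsg.Agent.H678.DG.Sph

/-!
# The irreducible character of degree `325` of the Tits group

The Tits group `T` acts on the `5850` oriented lines of its generalized octagon. The kernel `E` (`1` for positive opposite
oriented lines, `-1` for negative opposite oriented lines, `0` otherwise) has the simple eigenvalue `-256`, of
multiplicity `325`.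
-/

set_option autoImplicit false
set_option maxRecDepth 100000
set_option exponentiation.threshold 9000

namespace Cfsg.Agent.H80.PB.TitsLine

open Cfsg Cfsg.Agent.Lib.BitNet Cfsg.Agent.Lib.BitNetSimple Cfsg.Agent.SporadicB.RuTitsData
open Cfsg.Agent.SporadicB.RuTits Cfsg.Agent.H80.PB.TitsLineData MulAction

/-! ### the table -/

theorem t_eq (i s : ℕ) : t i s = (tab >>> (36 * (i / 2) + 12 * (s * (1 + i % 2) % 3))) &&& 4095 := rfl

theorem t_congr {i s s' : ℕ} (h : s % 3 = s' % 3) : t i s = t i s' := by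
  rw [t_eq, t_eq, Nat.mul_mod s, h, ← Nat.mul_mod]

theorem t_flip {i j : ℕ} (h1 : i / 2 = j / 2) (h2 : i % 2 + j % 2 = 1) (s : ℕ) : t j s = t i (2 * s) := by
  have h3 : s * (1 + j % 2) % 3 = 2 * s * (1 + i % 2) % 3 := by
    rcases Nat.mod_two_eq_zero_or_one i with h | h
    · have h4 : j % 2 = 1 := by omega
      rw [h, h4]
      omega
    · have h4 : j % 2 = 0 := by omega
      rw [h, h4]
      omega
  rw [t_eq, t_eq, h1, h3]

theorem tab_spec {k : ℕ} (hk : k < 2925) : t (2 * k) 0 < t (2 * k) 1 ∧ t (2 * k) 1 < t (2 * k) 2 ∧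
    t (2 * k) 2 < 4060 := by
  have h := allF_spec _ 12 0 tab_ok k (Nat.zero_le _) (by omega)
  have h1 : Nat.blt k 2925 = true := by rw [Nat.blt_eq]; exact hk
  rw [h1, cond_true, force_eq, Bool.and_eq_true, Bool.and_eq_true, Nat.blt_eq, Nat.blt_eq, Nat.blt_eq] at h
  exact h

theorem cd_lt {k : ℕ} (hk : k < 2924) : cd k < cd (k + 1) := by
  have h := allF_spec _ 12 0 tab_mono k (Nat.zero_le _) (by omega)
  have h1 : Nat.blt k 2924 = true := by rw [Nat.blt_eq]; exact hk
  rw [h1, cond_true, Nat.blt_eq] at h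
  exact h

theorem cd_lt_of_lt {k l : ℕ} (h : k < l) (hl : l < 2925) : cd k < cd l := by
  induction l with
  | zero => omega
  | succ l ih =>
    rcases Nat.lt_or_ge k l with h1 | h1
    · exact (ih h1 (by omega)).trans (cd_lt (by omega))
    · have : k = l := by omega
      subst this
      exact cd_lt (by omega)

theorem cd_inj {k l : ℕ} (hk : k < 2925) (hl : l < 2925) (h : cd k = cd l) : k = l := by
  rcases lt_trichotomy k l with h1 | h1 | h1
  · exact absurd h (cd_lt_of_lt h1 hl).ne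
  · exact h1
  · exact absurd h.symm (cd_lt_of_lt h1 hk).ne

theorem t_par (i : ℕ) : (i % 2 = 0 ∧ t i 0 = t (2 * (i / 2)) 0 ∧ t i 1 = t (2 * (i / 2)) 1 ∧ t i 2 = t (2 * (i / 2)) 2) ∨
    (i % 2 = 1 ∧ t i 0 = t (2 * (i / 2)) 0 ∧ t i 1 = t (2 * (i / 2)) 2 ∧ t i 2 = t (2 * (i / 2)) 1) := by
  rcases Nat.mod_two_eq_zero_or_one i with h | h
  · left
    have e : 2 * (i / 2) = i := by omega
    rw [e]
    exact ⟨h, rfl, rfl, rfl⟩
  · right
    have h1 : 2 * (i / 2) / 2 = i / 2 := by omega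
    have h2 : 2 * (i / 2) % 2 + i % 2 = 1 := by omega
    refine ⟨h, t_flip h1 h2 0, t_flip h1 h2 1, ?_⟩
    rw [t_flip h1 h2 2]
    exact t_congr rfl

theorem t_lt (i : Fin 5850) (s : ℕ) : t i s < 4060 := by
  have hk : (i : ℕ) / 2 < 2925 := by omega
  obtain ⟨h1, h2, h3⟩ := tab_spec hk
  have h4 : t i s = t i (s % 3) := t_congr (Nat.mod_mod _ _).symm
  have h5 : s % 3 = 0 ∨ s % 3 = 1 ∨ s % 3 = 2 := by omega
  rw [h4]
  rcases t_par i with ⟨-, a, b, c⟩ | ⟨-, a, b, c⟩ <;> rcases h5 with h | h | h <;> rw [h] <;> omega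

theorem t_inj {i j : ℕ} (hi : i < 5850) (hj : j < 5850) (e : ℕ) (h : ∀ s, t i s = t j (s + e)) : i = j := by
  have hk : i / 2 < 2925 := by omega
  have hl : j / 2 < 2925 := by omega
  obtain ⟨a1, a2, -⟩ := tab_spec hk
  obtain ⟨b1, b2, -⟩ := tab_spec hl
  have h0 := h 0
  have h1 := h 1
  have h2 := h 2
  have key : t (2 * (i / 2)) 0 = t (2 * (j / 2)) 0 ∧ t (2 * (i / 2)) 1 = t (2 * (j / 2)) 1 ∧
      t (2 * (i / 2)) 2 = t (2 * (j / 2)) 2 ∧ i % 2 = j % 2 := by
    have he : e % 3 = 0 ∨ e % 3 = 1 ∨ e % 3 = 2 := by omega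
    rcases he with he | he | he
    · rw [t_congr (show (0 + e) % 3 = 0 % 3 by omega)] at h0
      rw [t_congr (show (1 + e) % 3 = 1 % 3 by omega)] at h1
      rw [t_congr (show (2 + e) % 3 = 2 % 3 by omega)] at h2
      rcases t_par i with ⟨p, a, b, c⟩ | ⟨p, a, b, c⟩ <;> rcases t_par j with ⟨p', a', b', c'⟩ | ⟨p', a', b', c'⟩ <;>
        omega
    · rw [t_congr (show (0 + e) % 3 = 1 % 3 by omega)] at h0
      rw [t_congr (show (1 + e) % 3 = 2 % 3 by omega)] at h1
      rw [t_congr (show (2 + e) % 3 = 0 % 3 by omega)] at h2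
      rcases t_par i with ⟨p, a, b, c⟩ | ⟨p, a, b, c⟩ <;> rcases t_par j with ⟨p', a', b', c'⟩ | ⟨p', a', b', c'⟩ <;>
        omega
    · rw [t_congr (show (0 + e) % 3 = 2 % 3 by omega)] at h0
      rw [t_congr (show (1 + e) % 3 = 0 % 3 by omega)] at h1
      rw [t_congr (show (2 + e) % 3 = 1 % 3 by omega)] at h2
      rcases t_par i with ⟨p, a, b, c⟩ | ⟨p, a, b, c⟩ <;> rcases t_par j with ⟨p', a', b', c'⟩ | ⟨p', a', b', c'⟩ <;>
        omega
  obtain ⟨k0, k1, k2, kp⟩ := key
  have h3 : cd (i / 2) = cd (j / 2) := by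
    have e1 : ∀ k, cd k = t (2 * k) 0 + 4096 * (t (2 * k) 1 + 4096 * t (2 * k) 2) := fun _ => rfl
    rw [e1, e1, k0, k1, k2]
  have h4 := cd_inj hk hl h3
  omega

/-! ### the action -/

/-- the points of an oriented line -/
def Fx (i : Fin 5850) (s : ℕ) : Fin 4060 := ⟨t i s, t_lt i s⟩

theorem Fx_congr {i : Fin 5850} {s s' : ℕ} (h : s % 3 = s' % 3) : Fx i s = Fx i s' := Fin.ext (t_congr h)

/-- the permutation `g` carries the oriented line `i` to `j` -/
def Car (g : Equiv.Perm (Fin 4060)) (i j : Fin 5850) : Prop := ∃ e : ℕ, ∀ s : ℕ, g (Fx i s) = Fx j (s + e)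

theorem Car.one (i : Fin 5850) : Car 1 i i := ⟨0, fun _ => rfl⟩

theorem Car.mul {g h : Equiv.Perm (Fin 4060)} {i j k : Fin 5850} (hg : Car g i j) (hh : Car h j k) :
    Car (h * g) i k := by
  obtain ⟨e, he⟩ := hg
  obtain ⟨e', he'⟩ := hh
  exact ⟨e + e', fun s => by rw [Equiv.Perm.mul_apply, he, he', add_assoc]⟩

theorem Car.inv {g : Equiv.Perm (Fin 4060)} {i j : Fin 5850} (hg : Car g i j) : Car g⁻¹ j i := by
  obtain ⟨e, he⟩ := hg
  refine ⟨2 * e, fun s => ?_⟩
  rw [Equiv.Perm.inv_eq_iff_eq, he]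
  exact Fx_congr (by omega)

theorem Car.unique {g : Equiv.Perm (Fin 4060)} {i j j' : Fin 5850} (h : Car g i j) (h' : Car g i j') : j = j' := by
  obtain ⟨e, he⟩ := h
  obtain ⟨e', he'⟩ := h'
  refine Fin.ext (t_inj j.2 j'.2 (2 * e + e') fun s => ?_)
  have h1 := he (s + 2 * e)
  rw [he' (s + 2 * e)] at h1
  have h2 : Fx j (s + 2 * e + e) = Fx j s := Fx_congr (by omega)
  rw [h2] at h1
  have h3 := congrArg Fin.val h1.symm
  rw [add_assoc] at h3
  exact h3

theorem Car.of_check {x y : List (ℕ × ℕ)} (okx : OkNet 4060 x) (oky : OkNet 5850 y)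
    (h : allF (rot x y) 12 0 = true) (i : Fin 5850) : Car (perm okx) i (perm oky i) := by
  have hk : (i : ℕ) / 2 < 2925 := by omega
  have h0 := allF_spec _ 12 0 h ((i : ℕ) / 2) (Nat.zero_le _) (by omega)
  have h1 : Nat.blt ((i : ℕ) / 2) 2925 = true := by rw [Nat.blt_eq]; exact hk
  unfold rot at h0
  rw [h1, cond_true] at h0
  simp only [force_eq, appF_eq] at h0
  set a : ℕ := Nat.mul 2 ((i : ℕ) / 2) with ha
  have ha' : a = 2 * ((i : ℕ) / 2) := rfl
  rw [Bool.and_eq_true, Bool.and_eq_true] at h0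
  obtain ⟨⟨h2, h3⟩, h4⟩ := h0
  have h2 : app y a / 2 = app y (a + 1) / 2 := Nat.eq_of_beq_eq_true h2
  have h3 : app y a % 2 + app y (a + 1) % 2 = 1 := Nat.eq_of_beq_eq_true h3
  have h5 : ∃ e, ∀ s, app x (t a s) = t (app y a) (s + e) := by
    have key : ∀ e, eq3 (app x (t a 0)) (app x (t a 1)) (app x (t a 2)) (app y a) e = true →
        ∀ s, app x (t a s) = t (app y a) (s + e) := by
      intro e he s
      unfold eq3 at he
      rw [Bool.and_eq_true, Bool.and_eq_true] at he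
      obtain ⟨c0, c1, c2⟩ := he
      have c0 : app x (t a 0) = t (app y a) e := Nat.eq_of_beq_eq_true c0
      have c1 : app x (t a 1) = t (app y a) (e + 1) := Nat.eq_of_beq_eq_true c1
      have c2 : app x (t a 2) = t (app y a) (e + 2) := Nat.eq_of_beq_eq_true c2
      have hs : s % 3 = 0 ∨ s % 3 = 1 ∨ s % 3 = 2 := by omega
      rcases hs with hs | hs | hs
      · rw [t_congr (show s % 3 = 0 % 3 by omega), c0]
        exact t_congr (by omega)
      · rw [t_congr (show s % 3 = 1 % 3 by omega), c1]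
        exact t_congr (by omega)
      · rw [t_congr (show s % 3 = 2 % 3 by omega), c2]
        exact t_congr (by omega)
    rw [Bool.or_eq_true, Bool.or_eq_true] at h4
    rcases h4 with h4 | h4 | h4
    · exact ⟨0, key 0 h4⟩
    · exact ⟨1, key 1 h4⟩
    · exact ⟨2, key 2 h4⟩
  obtain ⟨e, he⟩ := h5
  rcases Nat.mod_two_eq_zero_or_one (i : ℕ) with hi | hi
  · have hia : a = (i : ℕ) := by omega
    rw [hia] at he
    exact ⟨e, fun s => Fin.ext (he s)⟩
  · have hia : a + 1 = (i : ℕ) := by omega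
    refine ⟨2 * e, fun s => Fin.ext ?_⟩
    show app x (t i s) = t (app y i) (s + 2 * e)
    rw [← hia, t_flip (i := a) (j := a + 1) (by omega) (by omega), he, t_flip h2 h3]
    exact t_congr (by omega)

theorem exists_car {g : Equiv.Perm (Fin 4060)} (hg : g ∈ T) : ∀ i, ∃ j, Car g i j := by
  induction hg using Subgroup.closure_induction with
  | mem g hg =>
    intro i
    rcases hg with rfl | rfl
    · exact ⟨_, Car.of_check xok0 yok0 rot0 i⟩
    · exact ⟨_, Car.of_check xok1 yok1 rot1 i⟩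
  | one => exact fun i => ⟨i, Car.one i⟩
  | mul a b _ _ ha hb =>
    intro i
    obtain ⟨j, hj⟩ := hb i
    obtain ⟨k, hk⟩ := ha j
    exact ⟨k, hj.mul hk⟩
  | inv a _ ha =>
    -- `a` induces an injective, hence surjective, map
    intro i
    choose f hf using ha
    have hinj : Function.Injective f := by
      intro u v huv
      have h1 := (hf u).inv
      have h2 := (hf v).inv
      rw [huv] at h1
      exact h1.unique h2
    obtain ⟨u, hu⟩ := Finite.surjective_of_injective hinj i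
    exact ⟨u, hu ▸ (hf u).inv⟩

noncomputable instance : MulAction T (Fin 5850) where
  smul g i := (exists_car g.2 i).choose
  one_smul i := Car.unique (exists_car (1 : T).2 i).choose_spec (Car.one i)
  mul_smul g h i := Car.unique (exists_car (g * h).2 i).choose_spec
    ((exists_car h.2 i).choose_spec.mul (exists_car g.2 _).choose_spec)

theorem smul_car (g : T) (i : Fin 5850) : Car g.1 i (g • i) := (exists_car g.2 i).choose_spec

theorem smul_eq {g : T} {i j : Fin 5850} (h : Car g.1 i j) : g • i = j := (smul_car g i).unique h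

/-- the permutations of the oriented lines -/
noncomputable def rho : T →* Equiv.Perm (Fin 5850) := MulAction.toPermHom T (Fin 5850)

theorem rho_apply (g : T) (i : Fin 5850) : rho g i = g • i := rfl

theorem mem0 : Mem rho.range y0 :=
  ⟨yok0, ⟨⟨perm xok0, tmem0.2⟩, Equiv.ext fun i => smul_eq (Car.of_check xok0 yok0 rot0 i)⟩⟩

theorem mem1 : Mem rho.range y1 :=
  ⟨yok1, ⟨⟨perm xok1, tmem1.2⟩, Equiv.ext fun i => smul_eq (Car.of_check xok1 yok1 rot1 i)⟩⟩

theorem gens : ∀ g ∈ [y0, y1], Mem rho.range g := by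
  intro g hg
  simp only [List.mem_cons, List.not_mem_nil, or_false] at hg
  rcases hg with rfl | rfl
  · exact mem0
  · exact mem1

theorem Mem.nil {n : ℕ} (K : Subgroup (Equiv.Perm (Fin n))) : Mem K [] := by
  have ok : OkNet n [] := ⟨fun _ h => absurd h (List.not_mem_nil), fun _ => Iff.rfl⟩
  refine ⟨ok, ?_⟩
  have : perm ok = 1 := Equiv.ext fun i => rfl
  rw [this]
  exact one_mem _

theorem Mem.wd {n : ℕ} {K : Subgroup (Equiv.Perm (Fin n))} {a b : List (ℕ × ℕ)} (ha : Mem K a) (hb : Mem K b) :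
    ∀ l : List ℕ, Mem K (wd a b l)
  | [] => Mem.nil K
  | x :: l => by
    unfold TitsLine.wd
    refine Lib.BitNetSimple.Mem.append ?_ (Mem.wd ha hb l)
    split
    · exact ha
    · exact hb
    · exact ha.reverse
    · exact hb.reverse

theorem trans0 (i : Fin 5850) : ∃ g : T, g • (0 : Fin 5850) = i := by
  have h1 : 5850 ≤ Nat.card (orbit rho.range (0 : Fin 5850)) := orbit_card_ge' (b := (0 : Fin 5850)) gens orbT
  have h2 : orbit rho.range (0 : Fin 5850) = Set.univ := by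
    apply Set.eq_of_subset_of_ncard_le (Set.subset_univ _)
    rw [Set.ncard_univ, Nat.card_eq_fintype_card, Fintype.card_fin]
    exact h1
  have h3 : i ∈ orbit rho.range (0 : Fin 5850) := by rw [h2]; exact Set.mem_univ _
  obtain ⟨⟨_, g, rfl⟩, hg⟩ := h3
  exact ⟨g, hg⟩

instance pretrans : IsPretransitive T (Fin 5850) := by
  refine ⟨fun x y => ?_⟩
  obtain ⟨g, rfl⟩ := trans0 x
  obtain ⟨h, rfl⟩ := trans0 y
  exact ⟨h * g⁻¹, by rw [mul_smul, inv_smul_smul]⟩

instance finite_T : Finite T := Nat.finite_of_card_ne_zero (by rw [card_T]; norm_num)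

/-! ### the stabilizer -/

theorem card_stab : Nat.card (stabilizer T (0 : Fin 5850)) = 3072 := by
  have h1 := Subgroup.card_mul_index (stabilizer T (0 : Fin 5850))
  rw [index_stabilizer_of_transitive, Nat.card_eq_fintype_card (α := Fin 5850), Fintype.card_fin, card_T] at h1
  omega

/-- the stabilizer, as a group of permutations -/
noncomputable def Sm : Subgroup (Equiv.Perm (Fin 5850)) := (stabilizer T (0 : Fin 5850)).map rho

theorem mem_Sm {l : List (ℕ × ℕ)} (h : Mem rho.range l) (h0 : Nat.beq (appF l 0) 0 = true) : Mem Sm l := by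
  obtain ⟨ok, g, hg⟩ := h
  refine ⟨ok, g, ?_, hg⟩
  rw [SetLike.mem_coe, mem_stabilizer_iff, ← rho_apply, hg]
  apply Fin.ext
  have h1 := Nat.eq_of_beq_eq_true h0
  rw [appF_eq] at h1
  exact h1

theorem km0 : Mem Sm k0 := mem_Sm (Mem.wd mem0 mem1 _) kfix0
theorem km1 : Mem Sm k1 := mem_Sm (Mem.wd mem0 mem1 _) kfix1

/-- the group generated by `k0` and `k1` -/
def Kk : Subgroup (Equiv.Perm (Fin 5850)) := Subgroup.closure {perm km0.1, perm km1.1}

theorem Kk_le : Kk ≤ Sm := by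
  rw [Kk, Subgroup.closure_le]
  rintro g (rfl | rfl)
  · exact km0.2
  · exact km1.2

theorem kk0 : Mem Kk k0 := ⟨km0.1, Subgroup.subset_closure (Or.inl rfl)⟩
theorem kk1 : Mem Kk k1 := ⟨km1.1, Subgroup.subset_closure (Or.inr rfl)⟩

theorem gensK : ∀ g ∈ [k0, k1], Mem Kk g := by
  intro g hg
  simp only [List.mem_cons, List.not_mem_nil, or_false] at hg
  rcases hg with rfl | rfl
  · exact kk0
  · exact kk1

def q1 : Fin 5850 := ⟨619, by norm_num⟩

theorem k3mem : Mem (Kk ⊓ stabilizer (Equiv.Perm (Fin 5850)) q1) k3 := Mem.stab (Mem.wd kk0 kk1 _) kfix3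

theorem card_Kk : 3072 ≤ Nat.card Kk := by
  have h1 : 1536 * Nat.card ↥(Kk ⊓ stabilizer (Equiv.Perm (Fin 5850)) q1) ≤ Nat.card Kk := lower_step' gensK orbK
  have h2 : 2 * Nat.card ↥((Kk ⊓ stabilizer (Equiv.Perm (Fin 5850)) q1) ⊓
      stabilizer (Equiv.Perm (Fin 5850)) (⟨2, by norm_num⟩ : Fin 5850)) ≤
      Nat.card ↥(Kk ⊓ stabilizer (Equiv.Perm (Fin 5850)) q1) := lower_step' (gs := [k3]) (by
    intro g hg
    rw [List.mem_singleton] at hg
    rw [hg]
    exact k3mem) orbK3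
  have h3 : 0 < Nat.card ↥((Kk ⊓ stabilizer (Equiv.Perm (Fin 5850)) q1) ⊓
      stabilizer (Equiv.Perm (Fin 5850)) (⟨2, by norm_num⟩ : Fin 5850)) := Nat.card_pos
  omega

theorem Kk_eq : Kk = Sm := by
  refine Subgroup.eq_of_le_of_card_ge Kk_le ?_
  have h1 : Nat.card Sm ≤ 3072 := by
    rw [← card_stab]
    exact Nat.card_le_card_of_surjective _ ((rho.subgroupMap_surjective (stabilizer T (0 : Fin 5850))))
  exact h1.trans card_Kk

/-! ### the classes -/

theorem inv_of {l : List (ℕ × ℕ)} (ok : OkNet 5850 l) {m : ℕ} (h : Nat.beq (appMF l m) m = true) (x : Fin 5850) :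
    m.testBit (perm ok x) = m.testBit x := by
  rw [appMF_eq] at h
  have h := Nat.eq_of_beq_eq_true h
  have h1 := testBit_appM ok.valid m x
  rw [h] at h1
  rw [perm_apply]
  exact h1

theorem K_inv (i : Fin 9) {g : Equiv.Perm (Fin 5850)} (hg : g ∈ Kk) : ∀ x, (cm i).testBit (g x) = (cm i).testBit x := by
  induction hg using Subgroup.closure_induction with
  | mem g hg =>
    rcases hg with rfl | rfl
    · exact inv_of _ (cm_inv0 i)
    · exact inv_of _ (cm_inv1 i)
  | one => intro x; rfl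
  | mul a b _ _ ha hb => intro x; rw [Equiv.Perm.mul_apply, ha, hb]
  | inv a _ ha =>
    intro x
    have h1 : a (a⁻¹ x) = x := a.apply_symm_apply x
    rw [← ha (a⁻¹ x), h1]

theorem inv_stab (i : Fin 9) {g : T} (hg : g ∈ stabilizer T (0 : Fin 5850)) (x : Fin 5850) :
    (cm i).testBit (g • x : Fin 5850) = (cm i).testBit x := by
  have h1 : rho g ∈ Kk := by
    rw [Kk_eq]
    exact ⟨g, hg, rfl⟩
  exact K_inv i h1 x

theorem exists_class (x : Fin 5850) : ∃ i, (cm i).testBit x = true := by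
  have h := Nat.eq_of_beq_eq_true cm_cover
  have h1 : (2 ^ 5850 - 1).testBit (x : ℕ) = true := by
    rw [Nat.testBit_two_pow_sub_one]
    simp
  have h' : [cm 1, cm 2, cm 3, cm 4, cm 5, cm 6, cm 7, cm 8].foldl Nat.lor (cm 0) = 2 ^ 5850 - 1 := h
  rw [← h'] at h1
  simp only [List.foldl_cons, List.foldl_nil] at h1
  have h2 : ∀ a b : ℕ, Nat.lor a b = a ||| b := fun _ _ => rfl
  simp only [h2, Nat.testBit_or, Bool.or_eq_true] at h1
  rcases h1 with (((((((h | h) | h) | h) | h) | h) | h) | h) | h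
  · exact ⟨0, h⟩
  · exact ⟨1, h⟩
  · exact ⟨2, h⟩
  · exact ⟨3, h⟩
  · exact ⟨4, h⟩
  · exact ⟨5, h⟩
  · exact ⟨6, h⟩
  · exact ⟨7, h⟩
  · exact ⟨8, h⟩

theorem class_unique {i j : Fin 9} {x : ℕ} (hi : (cm i).testBit x = true) (hj : (cm j).testBit x = true) : i = j := by
  rcases cm_disj i j with h | h
  · exact h
  · exfalso
    have h := Nat.eq_of_beq_eq_true h
    have h2 : Nat.land (cm i) (cm j) = cm i &&& cm j := rfl
    rw [h2] at h
    have h1 : (cm i &&& cm j).testBit x = true := by rw [Nat.testBit_and, hi, hj]; rfl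
    rw [h, Nat.zero_testBit] at h1
    exact Bool.noConfusion h1

/-- the class of an oriented line -/
noncomputable def cls (x : Fin 5850) : Fin 9 := (exists_class x).choose

theorem cls_spec (x : Fin 5850) : (cm (cls x)).testBit x = true := (exists_class x).choose_spec

theorem cls_iff (x : Fin 5850) (i : Fin 9) : cls x = i ↔ (cm i).testBit x = true :=
  ⟨fun h => h ▸ cls_spec x, fun h => class_unique (cls_spec x) h⟩

/-- the representatives -/
def r (i : Fin 9) : Fin 5850 := ⟨ri i, ri_lt i⟩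

theorem cls_smul {g : T} (hg : g ∈ stabilizer T (0 : Fin 5850)) (x : Fin 5850) : cls (g • x) = cls x := by
  rw [cls_iff, inv_stab _ hg]
  exact cls_spec x

theorem exists_smul (x : Fin 5850) : ∃ g ∈ stabilizer T (0 : Fin 5850), g • r (cls x) = x := by
  obtain ⟨k, hk⟩ := orb_i (cls x)
  obtain ⟨g, hg, hgx⟩ := exists_of_iterF (b := r (cls x)) gensK hk (cls_spec x)
  rw [Kk_eq] at hg
  obtain ⟨g', hg', rfl⟩ := hg
  exact ⟨g', hg', hgx⟩

theorem card_pts_popc {m : ℕ} (h : Nat.blt m (Nat.pow 2 5850) = true) : (pts 5850 m).card = popc 13 m := by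
  apply le_antisymm
  · exact card_pts_le (by norm_num) _
  · refine card_pts_eq fun k hk => ?_
    by_contra hlt
    rw [Nat.blt_eq] at h
    have h4 : m < 2 ^ k := lt_of_lt_of_le h (Nat.pow_le_pow_right (by norm_num) (not_lt.1 hlt))
    rw [Nat.testBit_lt_two_pow h4] at hk
    exact Bool.noConfusion hk

theorem card_cls (j : Fin 9) : (Finset.univ.filter fun y : Fin 5850 => cls y = j).card = kk j := by
  have h1 : (Finset.univ.filter fun y : Fin 5850 => cls y = j) = pts 5850 (cm j) := by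
    ext y
    rw [Finset.mem_filter, mem_pts, cls_iff]
    simp
  rw [h1, card_pts_popc (cm_lt j)]
  exact Nat.eq_of_beq_eq_true (cm_card j)

/-! ### the kernel -/

/-- the values of the kernel at `(0, y)` -/
def e0 (y : Fin 5850) : ℚ := (if ep.testBit y = true then 1 else 0) - (if em.testBit y = true then 1 else 0)

theorem ep_eq : ep = cm 4 ||| cm 7 := rfl
theorem em_eq : em = cm 5 ||| cm 6 := rfl

theorem e0_smul {g : T} (hg : g ∈ stabilizer T (0 : Fin 5850)) (y : Fin 5850) : e0 (g • y) = e0 y := by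
  unfold e0
  rw [ep_eq, em_eq]
  simp only [Nat.testBit_or, inv_stab _ hg]

/-- the kernel -/
noncomputable def E (x y : Fin 5850) : ℚ := e0 ((trans0 x).choose⁻¹ • y)

theorem E_eq {g : T} {x : Fin 5850} (h : g • (0 : Fin 5850) = x) (y : Fin 5850) : E x y = e0 (g⁻¹ • y) := by
  have h1 := (trans0 x).choose_spec
  unfold E
  set k := (trans0 x).choose
  have h2 : k⁻¹ * g ∈ stabilizer T (0 : Fin 5850) := by
    rw [mem_stabilizer_iff, mul_smul, h, ← h1, inv_smul_smul]
  rw [← e0_smul h2 (g⁻¹ • y), mul_smul, smul_inv_smul]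

theorem E_smul (g : T) (x y : Fin 5850) : E (g • x) (g • y) = E x y := by
  have h1 := (trans0 x).choose_spec
  rw [E_eq (g := g * (trans0 x).choose) (by rw [mul_smul, h1]), mul_inv_rev, mul_smul, inv_smul_smul]
  rfl

theorem testBit_word (i : Fin 9) : ∃ g : T, g • (0 : Fin 5850) = r i ∧
    ∀ (m : ℕ) (y : Fin 5850), m.testBit (g⁻¹ • y : Fin 5850) = (appMF (gw i) m).testBit y := by
  obtain ⟨ok, g, hg⟩ : Mem rho.range (gw i) := Mem.wd mem0 mem1 _
  refine ⟨g, ?_, fun m y => ?_⟩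
  · rw [← rho_apply, hg]
    apply Fin.ext
    have h1 := Nat.eq_of_beq_eq_true (gw_ri i)
    rw [appF_eq] at h1
    exact h1
  · have h1 := testBit_appM ok.valid m (g⁻¹ • y : Fin 5850)
    have h2 : app (gw i) (g⁻¹ • y : Fin 5850) = y := by
      have h3 : (perm ok (g⁻¹ • y) : Fin 5850) = y := by rw [← hg, rho_apply, smul_inv_smul]
      exact congrArg Fin.val h3
    rw [h2] at h1
    rw [appMF_eq]
    exact h1.symm

/-- the collapsed matrix -/
def B (i j : Fin 9) : ℚ := (Bp i j : ℚ) - Bm i j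

theorem land_lt (m : ℕ) (j : Fin 9) : Nat.blt (Nat.land m (cm j)) (Nat.pow 2 5850) = true := by
  have h := cm_lt j
  rw [Nat.blt_eq] at h ⊢
  exact Nat.and_lt_two_pow m h

theorem count (i j : Fin 9) (m c : ℕ) (h : Nat.beq (popc 13 (Nat.land (appMF (gw i) m) (cm j))) c = true) :
    ∑ y ∈ Finset.univ.filter (fun y : Fin 5850 => cls y = j), (if (appMF (gw i) m).testBit y = true then (1 : ℚ) else 0)
      = c := by
  rw [← Finset.sum_filter, Finset.sum_const, nsmul_eq_mul, mul_one, Finset.filter_filter]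
  have h1 : (Finset.univ.filter fun y : Fin 5850 => cls y = j ∧ (appMF (gw i) m).testBit y = true) =
      pts 5850 (Nat.land (appMF (gw i) m) (cm j)) := by
    ext y
    rw [Finset.mem_filter, mem_pts, cls_iff]
    have e : Nat.land (appMF (gw i) m) (cm j) = appMF (gw i) m &&& cm j := rfl
    rw [e, Nat.testBit_and, Bool.and_eq_true]
    simp [and_comm]
  rw [h1, card_pts_popc (land_lt _ _), Nat.eq_of_beq_eq_true h]

theorem sum_E (i j : Fin 9) : ∑ y ∈ Finset.univ.filter (fun y : Fin 5850 => cls y = j), E (r i) y = B i j := by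
  obtain ⟨g, hg, hm⟩ := testBit_word i
  have h1 : ∀ y : Fin 5850, E (r i) y = (if (appMF (gw i) ep).testBit y = true then (1 : ℚ) else 0) -
      (if (appMF (gw i) em).testBit y = true then (1 : ℚ) else 0) := by
    intro y
    rw [E_eq hg, e0, hm, hm]
  rw [Finset.sum_congr rfl fun y _ => h1 y, Finset.sum_sub_distrib, count i j ep (Bp i j) (cntp i j),
    count i j em (Bm i j) (cntm i j)]
  rfl

def av : Fin 9 → ℚ := ![1, -1, 0, 0, -1/16, 1/16, 1/16, -1/16, 0]

def Lc : Fin 9 → Fin 9 → ℚ := ![![0, 0, 0, 0, 0, 0, 0, 0, 0], ![1/256, 1/256, 0, 0, 0, 0, 0, 0, 0],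
  ![0, 0, 1/256, 0, 0, 0, 0, 0, 0], ![0, 0, 0, 1/256, 0, 0, 0, 0, 0],
  ![17/73728, 1/73728, 0, 0, 17/4608, 1/4608, 0, 0, 0], ![-17/73728, -1/73728, 0, 0, 1/4608, 17/4608, 0, 0, 0],
  ![-67/294912, -5/294912, 0, 0, -1/4608, 1/4608, 1/256, 0, 0],
  ![85/294912, -13/294912, 0, 0, -17/4608, 17/4608, 1/256, 0, 0], ![0, 0, 0, 0, 0, 0, 0, 0, 1/256]]

/-- **The irreducible character of degree `325`.** -/
theorem deg_325 : ∃ χ : IrrCharacter T, charDegree (χ : T → ℂ) = 325 :=
  H678.DG.Sph.exists_of_kernel_rat E E_smul (0 : Fin 5850) (stabilizer T (0 : Fin 5850)) (fun _ h => h) cls r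
    (fun _ hg x => cls_smul hg x) exists_smul B sum_E kk card_cls 0 ((cls_iff _ _).2 (by decide)) av (-256) Lc 325 5850
    (Fintype.card_fin _) (by decide +kernel) (by decide +kernel) (by decide +kernel) (by decide +kernel)

end Cfsg.Agent.H80.PB.TitsLine
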